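import Cfsg.Agent.Comp.MatW

/-! Lists of all lines of a vector space. -/

set_option autoImplicit false

namespace CF.Comp

open Matrix

variable {K : Type*} [Field K] {T : Tab} {el : ℕ → K} {ι : Type*} [Fintype ι] [DecidableEq ι] {d n : ℕ}
  {V : List (List ℕ)} {σ : Net}

theorem Tab.Ok.exists_ne_zero (hT : T.Ok el) {j r : ℕ} (hj : j < n) (hV : lall (hotOK T.q n) V = true)
    (h : normOK V r = true) (h1 : r.testBit j = true) : ∃ L ∈ V, el (hot L j) ≠ 0 := by
  induction V generalizing r with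
  | nil => rw [show r = 0 from beq_iff.1 h] at h1; simp at h1
  | cons L t ih =>
    have e1 : normOK (L :: t) r = Bool.rec false (force (r &&& nth 0 L 0) (normOK t))
      (Nat.beq (r &&& (nth 0 L 0 ||| nth 0 L 1)) r) := rfl
    rw [e1, brec_and, beq_iff, force_eq] at h
    have h3 := congrArg (·.testBit j) h.1
    simp only [Nat.testBit_and, Nat.testBit_or, h1, Bool.true_and, Bool.or_eq_true] at h3
    rcases h3 with h3 | h3
    · obtain ⟨M, h4, h5⟩ := ih (lall_iff.2 fun M hM => lall_iff.1 hV M (by simp [hM])) h.2 (by simp [h1, h3])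
      exact ⟨M, by simp [h4], h5⟩
    · refine ⟨L, by simp, ?_⟩
      rw [← ((hotOK_spec hj (lall_iff.1 hV L (by simp))).2.2 _).1 h3, hT.one]
      exact one_ne_zero

omit [Fintype ι] [DecidableEq ι] in
theorem Tab.Ok.vec_ne_zero (hT : T.Ok el) (ε : ι ≃ Fin d) (h : vecOK T.q n d V σ = true)
    (h' : normOK V (full n) = true) {j : ℕ} (hj : j < n) : vec el ε V j ≠ 0 := fun e => by
  obtain ⟨h1, h2, -⟩ := vecOK_iff.1 h
  obtain ⟨L, hL, h3⟩ := hT.exists_ne_zero hj h2 h' (by simpa [testBit_full] using hj)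
  obtain ⟨k, hk, rfl⟩ := exists_nth_of_mem [] hL
  exact h3 (by simpa [vec] using congrFun e (ε.symm ⟨k, h1 ▸ hk⟩))

/-- every line is listed -/
theorem Tab.Ok.exists_smul_vec [Fintype K] (hT : T.Ok el) (ε : ι ≃ Fin d) (h : vecOK T.q n d V σ = true)
    (h' : normOK V (full n) = true) (hn : n * (Fintype.card K - 1) + 1 = Fintype.card K ^ d) {v : ι → K}
    (hv : v ≠ 0) : ∃ j < n, ∃ c : Kˣ, c • vec el ε V j = v := by
  classical
  let F : Option (Fin n × Kˣ) → ι → K := fun o => o.elim 0 fun p => p.2 • vec el ε V p.1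
  have h0 : ∀ p : Fin n × Kˣ, p.2 • vec el ε V p.1 ≠ 0 := fun p =>
    (smul_ne_zero_iff_ne _).2 (hT.vec_ne_zero ε h h' p.1.2)
  have hF : Function.Bijective F := (Fintype.bijective_iff_injective_and_card F).2 ⟨by
    rintro (_ | p) (_ | q) e
    · rfl
    · exact absurd e.symm (h0 q)
    · exact absurd e (h0 p)
    · have e' : p.2 • vec el ε V p.1 = q.2 • vec el ε V q.1 := e
      have h1 : p.1 = q.1 := Fin.ext ((hT.linDom ε (1 : Unit →* _) h h').inj _ p.1.2 _ q.1.2
        (Submodule.span_singleton_eq_span_singleton.2 ⟨q.2⁻¹ * p.2, by rw [mul_smul, e', inv_smul_smul]⟩))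
      rw [h1, Units.smul_def, Units.smul_def] at e'
      exact congrArg _ (Prod.ext h1 (Units.ext (smul_left_injective K (hT.vec_ne_zero ε h h' q.1.2) e'))), by
    simp [Fintype.card_units, hn, Fintype.card_congr ε]⟩
  obtain ⟨_ | p, e⟩ := hF.2 v
  · exact absurd e.symm hv
  · exact ⟨p.1, p.1.2, p.2, e⟩

end CF.Comp
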